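import Cfsg.Agent.OD.Pre
import Cfsg.Agent.H6.Top2
import Cfsg.Agent.H6.HeA.C
set_option autoImplicit false
set_option maxRecDepth 100000
set_option Elab.async false
set_option linter.all false
namespace CfH6.HeA
open CfH6 MulAction
theorem e0_0 : EqsOk nets0 eqs0 2560 12 0 12 :=
  eqsOk_of _ _ _ _ 0 12 _ (by decide) (by decide +kernel)
theorem ok0 : okNets 2560 nets0 = true := by decide +kernel
theorem x1_0 : NxOk nets0 ws1 nets1 7 2560 12 2560 0 12 :=
  nxOk_of _ _ _ _ _ _ _ 0 12 _ (by decide) (by decide +kernel)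
theorem sx1 : sideNx ws1 nets1 7 2560 12 2560 = true := by decide +kernel
theorem x2_0 : NxOk nets1 ws2 nets2 6 2560 12 40 0 12 :=
  nxOk_of _ _ _ _ _ _ _ 0 12 _ (by decide) (by decide +kernel)
theorem sx2 : sideNx ws2 nets2 7 2560 12 40 = true := by decide +kernel
theorem x3_0 : NxOk nets2 ws3 nets3 3 40 6 12 0 6 :=
  nxOk_of _ _ _ _ _ _ _ 0 6 _ (by decide) (by decide +kernel)
theorem sx3 : sideNx ws3 nets3 6 40 6 12 = true := by decide +kernel
theorem x4_0 : NxOk nets3 ws4 nets4 2 12 4 8 0 4 :=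
  nxOk_of _ _ _ _ _ _ _ 0 4 _ (by decide) (by decide +kernel)
theorem sx4 : sideNx ws4 nets4 3 12 4 8 = true := by decide +kernel
theorem x5_0 : NxOk nets4 ws5 nets5 1 8 3 8 0 3 :=
  nxOk_of _ _ _ _ _ _ _ 0 3 _ (by decide) (by decide +kernel)
theorem sx5 : sideNx ws5 nets5 2 8 3 8 = true := by decide +kernel
theorem oi1_0 : (Nat.blt 0 7 && Nat.beq (orbN nets1 7 49 (Nat.shiftLeft 1 1)) S1) = true := by decide +kernel
theorem ci1 : (Nat.beq (chkInv nets1 7 S1) 0 && S1.testBit 1) = true := by decide +kernel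
theorem oi2_0 : (Nat.blt 0 7 && Nat.beq (orbN nets1 7 28 (Nat.shiftLeft 1 1399)) S2) = true := by decide +kernel
theorem ci2 : (Nat.beq (chkInv nets1 7 S2) 0 && S2.testBit 1399) = true := by decide +kernel
theorem oi3_0 : (Nat.blt 0 7 && Nat.beq (orbN nets1 7 21 (Nat.shiftLeft 1 1794)) S3) = true := by decide +kernel
theorem ci3 : (Nat.beq (chkInv nets1 7 S3) 0 && S3.testBit 1794) = true := by decide +kernel
theorem oi4_0 : (Nat.blt 0 7 && Nat.beq (orbN nets1 7 35 (Nat.shiftLeft 1 1930)) S4) = true := by decide +kernel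
theorem ci4 : (Nat.beq (chkInv nets1 7 S4) 0 && S4.testBit 1930) = true := by decide +kernel
theorem cm4 : chkMx 2560 nets0 7 ws1 7 2058 w4 1930 J4 lBig = true := by decide +kernel
theorem cm3 : chkMx 2560 nets0 7 ws1 7 2058 w3 1794 J3 lBig = true := by decide +kernel
theorem cm2 : chkMx 2560 nets0 7 ws1 7 2058 w2 1399 J2 lBig = true := by decide +kernel
theorem cm1 : chkMx 2560 nets0 7 ws1 7 2058 w1 1 J1 lBig = true := by decide +kernel
theorem og5 : Nat.ble 2 (popc 3 (orbN nets5 1 1 (Nat.shiftLeft 1 5))) = true := by decide +kernel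
theorem og4 : Nat.ble 3 (popc 3 (orbN nets4 2 2 (Nat.shiftLeft 1 4))) = true := by decide +kernel
theorem og3 : Nat.ble 8 (popc 4 (orbN nets3 3 6 (Nat.shiftLeft 1 3))) = true := by decide +kernel
theorem og2 : Nat.ble 30 (popc 6 (orbN nets2 6 6 (Nat.shiftLeft 1 2))) = true := by decide +kernel
theorem pw0 : (allLt 7 (wpow [3, 5, 6] (7 ^ 1)) && bs'.all fun b => Nat.blt b 2560 && Nat.beq (chkMap nets0 (wpow [3, 5, 6] (7 ^ 1)) b b) 0) = true := by decide +kernel
end CfH6.HeA
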